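import Cfsg.Agent.Lib.Compute.Mult.Suz.DefsL

/-!
# The checks of the words on the table on `32760` points, part 0
-/

set_option autoImplicit false
set_option maxRecDepth 100000

namespace Cfsg.Agent.Lib.Compute.Mult.Suz

open Cfsg.Agent.Lib.Compute.PermCert Cfsg.Agent.Lib.Compute.PeelCert Cfsg.Agent.Lib.Compute.CoverCert
open Cfsg.Agent.Lib.Compute.SchurLin (flp expV unitV)

theorem row7R0 : allB (fun r => rowOKL 7 (Nat.add 0 r)) 32760 = true := by decide +kernel

theorem row7_all : allB (rowOKL 7) 32760 = true := by
  rw [allB_iff]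
  intro u hu
  exact Cfsg.Agent.Lib.Compute.Mult.blk row7R0 (by omega) (by omega)

theorem row8R0 : allB (fun r => rowOKL 8 (Nat.add 0 r)) 32760 = true := by decide +kernel

theorem row8_all : allB (rowOKL 8) 32760 = true := by
  rw [allB_iff]
  intro u hu
  exact Cfsg.Agent.Lib.Compute.Mult.blk row8R0 (by omega) (by omega)

theorem row9R0 : allB (fun r => rowOKL 9 (Nat.add 0 r)) 32760 = true := by decide +kernel

theorem row9_all : allB (rowOKL 9) 32760 = true := by
  rw [allB_iff]
  intro u hu
  exact Cfsg.Agent.Lib.Compute.Mult.blk row9R0 (by omega) (by omega)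

theorem row10R0 : allB (fun r => rowOKL 10 (Nat.add 0 r)) 32760 = true := by decide +kernel

theorem row10_all : allB (rowOKL 10) 32760 = true := by
  rw [allB_iff]
  intro u hu
  exact Cfsg.Agent.Lib.Compute.Mult.blk row10R0 (by omega) (by omega)

theorem row11R0 : allB (fun r => rowOKL 11 (Nat.add 0 r)) 32760 = true := by decide +kernel

theorem row11_all : allB (rowOKL 11) 32760 = true := by
  rw [allB_iff]
  intro u hu
  exact Cfsg.Agent.Lib.Compute.Mult.blk row11R0 (by omega) (by omega)

theorem row12R0 : allB (fun r => rowOKL 12 (Nat.add 0 r)) 32760 = true := by decide +kernel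

theorem row12_all : allB (rowOKL 12) 32760 = true := by
  rw [allB_iff]
  intro u hu
  exact Cfsg.Agent.Lib.Compute.Mult.blk row12R0 (by omega) (by omega)

theorem row13R0 : allB (fun r => rowOKL 13 (Nat.add 0 r)) 32760 = true := by decide +kernel

theorem row13_all : allB (rowOKL 13) 32760 = true := by
  rw [allB_iff]
  intro u hu
  exact Cfsg.Agent.Lib.Compute.Mult.blk row13R0 (by omega) (by omega)

theorem row14R0 : allB (fun r => rowOKL 14 (Nat.add 0 r)) 32760 = true := by decide +kernel

theorem row14_all : allB (rowOKL 14) 32760 = true := by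
  rw [allB_iff]
  intro u hu
  exact Cfsg.Agent.Lib.Compute.Mult.blk row14R0 (by omega) (by omega)

theorem row15R0 : allB (fun r => rowOKL 15 (Nat.add 0 r)) 32760 = true := by decide +kernel

theorem row15_all : allB (rowOKL 15) 32760 = true := by
  rw [allB_iff]
  intro u hu
  exact Cfsg.Agent.Lib.Compute.Mult.blk row15R0 (by omega) (by omega)

theorem row16R0 : allB (fun r => rowOKL 16 (Nat.add 0 r)) 32760 = true := by decide +kernel

theorem row16_all : allB (rowOKL 16) 32760 = true := by
  rw [allB_iff]
  intro u hu
  exact Cfsg.Agent.Lib.Compute.Mult.blk row16R0 (by omega) (by omega)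

theorem row17R0 : allB (fun r => rowOKL 17 (Nat.add 0 r)) 32760 = true := by decide +kernel

theorem row17_all : allB (rowOKL 17) 32760 = true := by
  rw [allB_iff]
  intro u hu
  exact Cfsg.Agent.Lib.Compute.Mult.blk row17R0 (by omega) (by omega)

theorem row18R0 : allB (fun r => rowOKL 18 (Nat.add 0 r)) 32760 = true := by decide +kernel

theorem row18_all : allB (rowOKL 18) 32760 = true := by
  rw [allB_iff]
  intro u hu
  exact Cfsg.Agent.Lib.Compute.Mult.blk row18R0 (by omega) (by omega)

theorem row19R0 : allB (fun r => rowOKL 19 (Nat.add 0 r)) 32760 = true := by decide +kernel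

theorem row19_all : allB (rowOKL 19) 32760 = true := by
  rw [allB_iff]
  intro u hu
  exact Cfsg.Agent.Lib.Compute.Mult.blk row19R0 (by omega) (by omega)

theorem row20R0 : allB (fun r => rowOKL 20 (Nat.add 0 r)) 32760 = true := by decide +kernel

theorem row20_all : allB (rowOKL 20) 32760 = true := by
  rw [allB_iff]
  intro u hu
  exact Cfsg.Agent.Lib.Compute.Mult.blk row20R0 (by omega) (by omega)

theorem row21R0 : allB (fun r => rowOKL 21 (Nat.add 0 r)) 32760 = true := by decide +kernel

theorem row21_all : allB (rowOKL 21) 32760 = true := by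
  rw [allB_iff]
  intro u hu
  exact Cfsg.Agent.Lib.Compute.Mult.blk row21R0 (by omega) (by omega)


end Cfsg.Agent.Lib.Compute.Mult.Suz
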