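import Cfsg.Agent.Lib.Compute.Mult.Suz.DefsL

/-!
# The checks of the words on the table on `32760` points, part 1
-/

set_option autoImplicit false
set_option maxRecDepth 100000

namespace Cfsg.Agent.Lib.Compute.Mult.Suz

open Cfsg.Agent.Lib.Compute.PermCert Cfsg.Agent.Lib.Compute.PeelCert Cfsg.Agent.Lib.Compute.CoverCert
open Cfsg.Agent.Lib.Compute.SchurLin (flp expV unitV)

theorem row22R0 : allB (fun r => rowOKL 22 (Nat.add 0 r)) 32760 = true := by decide +kernel

theorem row22_all : allB (rowOKL 22) 32760 = true := by
  rw [allB_iff]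
  intro u hu
  exact Cfsg.Agent.Lib.Compute.Mult.blk row22R0 (by omega) (by omega)

theorem row23R0 : allB (fun r => rowOKL 23 (Nat.add 0 r)) 32760 = true := by decide +kernel

theorem row23_all : allB (rowOKL 23) 32760 = true := by
  rw [allB_iff]
  intro u hu
  exact Cfsg.Agent.Lib.Compute.Mult.blk row23R0 (by omega) (by omega)

theorem row24R0 : allB (fun r => rowOKL 24 (Nat.add 0 r)) 32760 = true := by decide +kernel

theorem row24_all : allB (rowOKL 24) 32760 = true := by
  rw [allB_iff]
  intro u hu
  exact Cfsg.Agent.Lib.Compute.Mult.blk row24R0 (by omega) (by omega)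

theorem row25R0 : allB (fun r => rowOKL 25 (Nat.add 0 r)) 32760 = true := by decide +kernel

theorem row25_all : allB (rowOKL 25) 32760 = true := by
  rw [allB_iff]
  intro u hu
  exact Cfsg.Agent.Lib.Compute.Mult.blk row25R0 (by omega) (by omega)

theorem row26R0 : allB (fun r => rowOKL 26 (Nat.add 0 r)) 32760 = true := by decide +kernel

theorem row26_all : allB (rowOKL 26) 32760 = true := by
  rw [allB_iff]
  intro u hu
  exact Cfsg.Agent.Lib.Compute.Mult.blk row26R0 (by omega) (by omega)

theorem row27R0 : allB (fun r => rowOKL 27 (Nat.add 0 r)) 32760 = true := by decide +kernel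

theorem row27_all : allB (rowOKL 27) 32760 = true := by
  rw [allB_iff]
  intro u hu
  exact Cfsg.Agent.Lib.Compute.Mult.blk row27R0 (by omega) (by omega)

theorem row28R0 : allB (fun r => rowOKL 28 (Nat.add 0 r)) 32760 = true := by decide +kernel

theorem row28_all : allB (rowOKL 28) 32760 = true := by
  rw [allB_iff]
  intro u hu
  exact Cfsg.Agent.Lib.Compute.Mult.blk row28R0 (by omega) (by omega)

theorem row29R0 : allB (fun r => rowOKL 29 (Nat.add 0 r)) 32760 = true := by decide +kernel

theorem row29_all : allB (rowOKL 29) 32760 = true := by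
  rw [allB_iff]
  intro u hu
  exact Cfsg.Agent.Lib.Compute.Mult.blk row29R0 (by omega) (by omega)

theorem row30R0 : allB (fun r => rowOKL 30 (Nat.add 0 r)) 32760 = true := by decide +kernel

theorem row30_all : allB (rowOKL 30) 32760 = true := by
  rw [allB_iff]
  intro u hu
  exact Cfsg.Agent.Lib.Compute.Mult.blk row30R0 (by omega) (by omega)

theorem row31R0 : allB (fun r => rowOKL 31 (Nat.add 0 r)) 32760 = true := by decide +kernel

theorem row31_all : allB (rowOKL 31) 32760 = true := by
  rw [allB_iff]
  intro u hu
  exact Cfsg.Agent.Lib.Compute.Mult.blk row31R0 (by omega) (by omega)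

theorem row32R0 : allB (fun r => rowOKL 32 (Nat.add 0 r)) 32760 = true := by decide +kernel

theorem row32_all : allB (rowOKL 32) 32760 = true := by
  rw [allB_iff]
  intro u hu
  exact Cfsg.Agent.Lib.Compute.Mult.blk row32R0 (by omega) (by omega)

theorem row33R0 : allB (fun r => rowOKL 33 (Nat.add 0 r)) 32760 = true := by decide +kernel

theorem row33_all : allB (rowOKL 33) 32760 = true := by
  rw [allB_iff]
  intro u hu
  exact Cfsg.Agent.Lib.Compute.Mult.blk row33R0 (by omega) (by omega)

theorem row34R0 : allB (fun r => rowOKL 34 (Nat.add 0 r)) 32760 = true := by decide +kernel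

theorem row34_all : allB (rowOKL 34) 32760 = true := by
  rw [allB_iff]
  intro u hu
  exact Cfsg.Agent.Lib.Compute.Mult.blk row34R0 (by omega) (by omega)


end Cfsg.Agent.Lib.Compute.Mult.Suz
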