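import Cfsg.Agent.Lib.Compute.Mult.Suz.DefsL

/-!
# The checks of the words on the table on `32760` points, part 2
-/

set_option autoImplicit false
set_option maxRecDepth 100000

namespace Cfsg.Agent.Lib.Compute.Mult.Suz

open Cfsg.Agent.Lib.Compute.PermCert Cfsg.Agent.Lib.Compute.PeelCert Cfsg.Agent.Lib.Compute.CoverCert
open Cfsg.Agent.Lib.Compute.SchurLin (flp expV unitV)

theorem row35R0 : allB (fun r => rowOKL 35 (Nat.add 0 r)) 32760 = true := by decide +kernel

theorem row35_all : allB (rowOKL 35) 32760 = true := by
  rw [allB_iff]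
  intro u hu
  exact Cfsg.Agent.Lib.Compute.Mult.blk row35R0 (by omega) (by omega)

theorem row36R0 : allB (fun r => rowOKL 36 (Nat.add 0 r)) 32760 = true := by decide +kernel

theorem row36_all : allB (rowOKL 36) 32760 = true := by
  rw [allB_iff]
  intro u hu
  exact Cfsg.Agent.Lib.Compute.Mult.blk row36R0 (by omega) (by omega)

theorem row37R0 : allB (fun r => rowOKL 37 (Nat.add 0 r)) 32760 = true := by decide +kernel

theorem row37_all : allB (rowOKL 37) 32760 = true := by
  rw [allB_iff]
  intro u hu
  exact Cfsg.Agent.Lib.Compute.Mult.blk row37R0 (by omega) (by omega)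

theorem row38R0 : allB (fun r => rowOKL 38 (Nat.add 0 r)) 32760 = true := by decide +kernel

theorem row38_all : allB (rowOKL 38) 32760 = true := by
  rw [allB_iff]
  intro u hu
  exact Cfsg.Agent.Lib.Compute.Mult.blk row38R0 (by omega) (by omega)

theorem row39R0 : allB (fun r => rowOKL 39 (Nat.add 0 r)) 32760 = true := by decide +kernel

theorem row39_all : allB (rowOKL 39) 32760 = true := by
  rw [allB_iff]
  intro u hu
  exact Cfsg.Agent.Lib.Compute.Mult.blk row39R0 (by omega) (by omega)

theorem row40R0 : allB (fun r => rowOKL 40 (Nat.add 0 r)) 32760 = true := by decide +kernel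

theorem row40_all : allB (rowOKL 40) 32760 = true := by
  rw [allB_iff]
  intro u hu
  exact Cfsg.Agent.Lib.Compute.Mult.blk row40R0 (by omega) (by omega)

theorem row41R0 : allB (fun r => rowOKL 41 (Nat.add 0 r)) 32760 = true := by decide +kernel

theorem row41_all : allB (rowOKL 41) 32760 = true := by
  rw [allB_iff]
  intro u hu
  exact Cfsg.Agent.Lib.Compute.Mult.blk row41R0 (by omega) (by omega)

theorem row42R0 : allB (fun r => rowOKL 42 (Nat.add 0 r)) 32760 = true := by decide +kernel

theorem row42_all : allB (rowOKL 42) 32760 = true := by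
  rw [allB_iff]
  intro u hu
  exact Cfsg.Agent.Lib.Compute.Mult.blk row42R0 (by omega) (by omega)

theorem row43R0 : allB (fun r => rowOKL 43 (Nat.add 0 r)) 32760 = true := by decide +kernel

theorem row43_all : allB (rowOKL 43) 32760 = true := by
  rw [allB_iff]
  intro u hu
  exact Cfsg.Agent.Lib.Compute.Mult.blk row43R0 (by omega) (by omega)

theorem row44R0 : allB (fun r => rowOKL 44 (Nat.add 0 r)) 32760 = true := by decide +kernel

theorem row44_all : allB (rowOKL 44) 32760 = true := by
  rw [allB_iff]
  intro u hu
  exact Cfsg.Agent.Lib.Compute.Mult.blk row44R0 (by omega) (by omega)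

theorem row45R0 : allB (fun r => rowOKL 45 (Nat.add 0 r)) 32760 = true := by decide +kernel

theorem row45_all : allB (rowOKL 45) 32760 = true := by
  rw [allB_iff]
  intro u hu
  exact Cfsg.Agent.Lib.Compute.Mult.blk row45R0 (by omega) (by omega)

theorem row46R0 : allB (fun r => rowOKL 46 (Nat.add 0 r)) 32760 = true := by decide +kernel

theorem row46_all : allB (rowOKL 46) 32760 = true := by
  rw [allB_iff]
  intro u hu
  exact Cfsg.Agent.Lib.Compute.Mult.blk row46R0 (by omega) (by omega)

theorem row47R0 : allB (fun r => rowOKL 47 (Nat.add 0 r)) 32760 = true := by decide +kernel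

theorem row47_all : allB (rowOKL 47) 32760 = true := by
  rw [allB_iff]
  intro u hu
  exact Cfsg.Agent.Lib.Compute.Mult.blk row47R0 (by omega) (by omega)

theorem row48R0 : allB (fun r => rowOKL 48 (Nat.add 0 r)) 32760 = true := by decide +kernel

theorem row48_all : allB (rowOKL 48) 32760 = true := by
  rw [allB_iff]
  intro u hu
  exact Cfsg.Agent.Lib.Compute.Mult.blk row48R0 (by omega) (by omega)

theorem row49R0 : allB (fun r => rowOKL 49 (Nat.add 0 r)) 32760 = true := by decide +kernel

theorem row49_all : allB (rowOKL 49) 32760 = true := by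
  rw [allB_iff]
  intro u hu
  exact Cfsg.Agent.Lib.Compute.Mult.blk row49R0 (by omega) (by omega)

theorem row50R0 : allB (fun r => rowOKL 50 (Nat.add 0 r)) 32760 = true := by decide +kernel

theorem row50_all : allB (rowOKL 50) 32760 = true := by
  rw [allB_iff]
  intro u hu
  exact Cfsg.Agent.Lib.Compute.Mult.blk row50R0 (by omega) (by omega)

theorem row51R0 : allB (fun r => rowOKL 51 (Nat.add 0 r)) 32760 = true := by decide +kernel

theorem row51_all : allB (rowOKL 51) 32760 = true := by
  rw [allB_iff]
  intro u hu
  exact Cfsg.Agent.Lib.Compute.Mult.blk row51R0 (by omega) (by omega)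


end Cfsg.Agent.Lib.Compute.Mult.Suz
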