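import Cfsg.Agent.Lib.Compute.Mult.Suz.DefsL

/-!
# The checks of the words on the table on `32760` points, part 3
-/

set_option autoImplicit false
set_option maxRecDepth 100000

namespace Cfsg.Agent.Lib.Compute.Mult.Suz

open Cfsg.Agent.Lib.Compute.PermCert Cfsg.Agent.Lib.Compute.PeelCert Cfsg.Agent.Lib.Compute.CoverCert
open Cfsg.Agent.Lib.Compute.SchurLin (flp expV unitV)

theorem row52R0 : allB (fun r => rowOKL 52 (Nat.add 0 r)) 32760 = true := by decide +kernel

theorem row52_all : allB (rowOKL 52) 32760 = true := by
  rw [allB_iff]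
  intro u hu
  exact Cfsg.Agent.Lib.Compute.Mult.blk row52R0 (by omega) (by omega)

theorem row53R0 : allB (fun r => rowOKL 53 (Nat.add 0 r)) 32760 = true := by decide +kernel

theorem row53_all : allB (rowOKL 53) 32760 = true := by
  rw [allB_iff]
  intro u hu
  exact Cfsg.Agent.Lib.Compute.Mult.blk row53R0 (by omega) (by omega)

theorem row54R0 : allB (fun r => rowOKL 54 (Nat.add 0 r)) 32760 = true := by decide +kernel

theorem row54_all : allB (rowOKL 54) 32760 = true := by
  rw [allB_iff]
  intro u hu
  exact Cfsg.Agent.Lib.Compute.Mult.blk row54R0 (by omega) (by omega)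

theorem row55R0 : allB (fun r => rowOKL 55 (Nat.add 0 r)) 32760 = true := by decide +kernel

theorem row55_all : allB (rowOKL 55) 32760 = true := by
  rw [allB_iff]
  intro u hu
  exact Cfsg.Agent.Lib.Compute.Mult.blk row55R0 (by omega) (by omega)

theorem row56R0 : allB (fun r => rowOKL 56 (Nat.add 0 r)) 32760 = true := by decide +kernel

theorem row56_all : allB (rowOKL 56) 32760 = true := by
  rw [allB_iff]
  intro u hu
  exact Cfsg.Agent.Lib.Compute.Mult.blk row56R0 (by omega) (by omega)

theorem row57R0 : allB (fun r => rowOKL 57 (Nat.add 0 r)) 32760 = true := by decide +kernel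

theorem row57_all : allB (rowOKL 57) 32760 = true := by
  rw [allB_iff]
  intro u hu
  exact Cfsg.Agent.Lib.Compute.Mult.blk row57R0 (by omega) (by omega)

theorem row58R0 : allB (fun r => rowOKL 58 (Nat.add 0 r)) 32760 = true := by decide +kernel

theorem row58_all : allB (rowOKL 58) 32760 = true := by
  rw [allB_iff]
  intro u hu
  exact Cfsg.Agent.Lib.Compute.Mult.blk row58R0 (by omega) (by omega)

theorem row59R0 : allB (fun r => rowOKL 59 (Nat.add 0 r)) 32760 = true := by decide +kernel

theorem row59_all : allB (rowOKL 59) 32760 = true := by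
  rw [allB_iff]
  intro u hu
  exact Cfsg.Agent.Lib.Compute.Mult.blk row59R0 (by omega) (by omega)


end Cfsg.Agent.Lib.Compute.Mult.Suz
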