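import Cfsg.Agent.Lib.Compute.Mult.Suz.DefsL

/-!
# The checks of the words on the table on `32760` points, part 4
-/

set_option autoImplicit false
set_option maxRecDepth 100000

namespace Cfsg.Agent.Lib.Compute.Mult.Suz

open Cfsg.Agent.Lib.Compute.PermCert Cfsg.Agent.Lib.Compute.PeelCert Cfsg.Agent.Lib.Compute.CoverCert
open Cfsg.Agent.Lib.Compute.SchurLin (flp expV unitV)

theorem row60R0 : allB (fun r => rowOKL 60 (Nat.add 0 r)) 10256 = true := by decide +kernel
theorem row60R1 : allB (fun r => rowOKL 60 (Nat.add 10256 r)) 10256 = true := by decide +kernel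
theorem row60R2 : allB (fun r => rowOKL 60 (Nat.add 20512 r)) 10256 = true := by decide +kernel
theorem row60R3 : allB (fun r => rowOKL 60 (Nat.add 30768 r)) 1992 = true := by decide +kernel

theorem row60_all : allB (rowOKL 60) 32760 = true := by
  rw [allB_iff]
  intro u hu
  by_cases h0 : u < 10256
  · exact Cfsg.Agent.Lib.Compute.Mult.blk row60R0 (by omega) (by omega)
  by_cases h1 : u < 20512
  · exact Cfsg.Agent.Lib.Compute.Mult.blk row60R1 (by omega) (by omega)
  by_cases h2 : u < 30768
  · exact Cfsg.Agent.Lib.Compute.Mult.blk row60R2 (by omega) (by omega)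
  exact Cfsg.Agent.Lib.Compute.Mult.blk row60R3 (by omega) (by omega)


end Cfsg.Agent.Lib.Compute.Mult.Suz
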