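import Cfsg.Agent.Lib.Compute.Mult.Suz.DefsL

/-!
# The check of the table on `32760` points
-/

set_option autoImplicit false
set_option maxRecDepth 100000

namespace Cfsg.Agent.Lib.Compute.Mult.Suz

open Cfsg.Agent.Lib.Compute.PermCert Cfsg.Agent.Lib.Compute.PeelCert Cfsg.Agent.Lib.Compute.CoverCert
open Cfsg.Agent.Lib.Compute.SchurLin (flp expV unitV)

theorem tabR0 : allB (fun r => tabOKL (Nat.add 0 r)) 4096 = true := by decide +kernel
theorem tabR1 : allB (fun r => tabOKL (Nat.add 4096 r)) 4096 = true := by decide +kernel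
theorem tabR2 : allB (fun r => tabOKL (Nat.add 8192 r)) 4096 = true := by decide +kernel
theorem tabR3 : allB (fun r => tabOKL (Nat.add 12288 r)) 4096 = true := by decide +kernel
theorem tabR4 : allB (fun r => tabOKL (Nat.add 16384 r)) 4096 = true := by decide +kernel
theorem tabR5 : allB (fun r => tabOKL (Nat.add 20480 r)) 4096 = true := by decide +kernel
theorem tabR6 : allB (fun r => tabOKL (Nat.add 24576 r)) 4096 = true := by decide +kernel
theorem tabR7 : allB (fun r => tabOKL (Nat.add 28672 r)) 4088 = true := by decide +kernel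

theorem tabL_all : allB tabOKL 32760 = true := by
  rw [allB_iff]
  intro u hu
  by_cases h0 : u < 4096
  · exact Cfsg.Agent.Lib.Compute.Mult.blk tabR0 (by omega) (by omega)
  by_cases h1 : u < 8192
  · exact Cfsg.Agent.Lib.Compute.Mult.blk tabR1 (by omega) (by omega)
  by_cases h2 : u < 12288
  · exact Cfsg.Agent.Lib.Compute.Mult.blk tabR2 (by omega) (by omega)
  by_cases h3 : u < 16384
  · exact Cfsg.Agent.Lib.Compute.Mult.blk tabR3 (by omega) (by omega)
  by_cases h4 : u < 20480
  · exact Cfsg.Agent.Lib.Compute.Mult.blk tabR4 (by omega) (by omega)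
  by_cases h5 : u < 24576
  · exact Cfsg.Agent.Lib.Compute.Mult.blk tabR5 (by omega) (by omega)
  by_cases h6 : u < 28672
  · exact Cfsg.Agent.Lib.Compute.Mult.blk tabR6 (by omega) (by omega)
  exact Cfsg.Agent.Lib.Compute.Mult.blk tabR7 (by omega) (by omega)

end Cfsg.Agent.Lib.Compute.Mult.Suz
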