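import Cfsg.Agent.Lib.Compute.Mult.Suz.ThmU
import Cfsg.Agent.Lib.Compute.Mult.Suz.TabL
import Cfsg.Agent.Lib.Compute.Mult.Suz.RowEL
import Cfsg.Agent.Lib.Compute.Mult.Suz.RowL0
import Cfsg.Agent.Lib.Compute.Mult.Suz.RowL1
import Cfsg.Agent.Lib.Compute.Mult.Suz.RowL2
import Cfsg.Agent.Lib.Compute.Mult.Suz.RowL3
import Cfsg.Agent.Lib.Compute.Mult.Suz.RowL4

/-!
# The cover of the Suzuki group

The edge labels on the table of the cosets of a subgroup of index `32760` give a permutation group on `6 * 32760` points.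
-/

set_option autoImplicit false
set_option maxRecDepth 100000

namespace Cfsg.Agent.Lib.Compute.Mult.Suz

open Cfsg Cfsg.Spor
open Cfsg.Agent.Lib.Compute.PermCert Cfsg.Agent.Lib.Compute.PeelCert Cfsg.Agent.Lib.Compute.CoverCert
open Cfsg.Agent.Lib.Compute.SchurLin Cfsg.Agent.Lib.Compute.SchurU Cfsg.Agent.Lib.Compute.PresTransfer
open Cfsg.Agent.Lib.Compute.ToddCoxeterCore (wordEl wordEl_nil wordEl_cons wordEl_append)
open Cfsg.Agent.Lib.Compute.ToddCoxeterPresented (toLetters letterOf coxList mem_coxR)

/-- The group of labels. -/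
abbrev AA : Type := Multiplicative (ZMod 6)

/-- The edge labels. -/
noncomputable def zA (i x : ℕ) : AA := Multiplicative.ofAdd ((zL i x : ℕ) : ZMod 6)

theorem walk_eq (i : ℕ) (w' : List ℕ) :
    walkProd tL zA i w' = Multiplicative.ofAdd ((wsumN tL zL i w' : ℕ) : ZMod 6) :=
  map_walkProd_cast (MonoidHom.id AA) (fun _ _ => rfl) i w'

theorem tabL_spec {i : ℕ} (hi : i < 32760) {x : ℕ} (hx : x < 14) :
    tL i x < 32760 ∧ tL (tL i x) (flp x) = i ∧ Nat.mod (Nat.add (zL (tL i x) (flp x)) (zL i x)) 6 = 0 := by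
  have h := (allB_iff _ _).1 ((allB_iff _ _).1 tabL_all i hi) x hx
  simp only [Bool.and_eq_true, Nat.beq_eq, Nat.blt_eq] at h
  exact ⟨h.1.1, h.1.2, h.2⟩

theorem vTab : VTab tL zA 7 32760 where
  hlt := fun i hi x hx => (tabL_spec hi hx).1
  hflp := fun i hi x hx => (tabL_spec hi hx).2.1
  hz := fun i hi x hx => by
    have h2 := (tabL_spec hi hx).2.2
    have h3 : ((zL (tL i x) (flp x) + zL i x : ℕ) : ZMod 6) = 0 :=
      (ZMod.natCast_eq_zero_iff _ _).2 (Nat.dvd_of_mod_eq_zero h2)
    rw [Nat.cast_add] at h3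
    show Multiplicative.ofAdd ((zL (tL i x) (flp x) : ℕ) : ZMod 6) = (Multiplicative.ofAdd ((zL i x : ℕ) : ZMod 6))⁻¹
    rw [eq_neg_of_add_eq_zero_left h3]
    rfl

/-- The value of a word. -/
noncomputable def wvA (k : ℕ) : AA := Multiplicative.ofAdd (((WVL.getD k 0 : ℕ)) : ZMod 6)

theorem row_spec {k i : ℕ} (h : rowOKL k i = true) :
    walkEnd tL i (WW.getD k []) = i ∧ walkProd tL zA i (WW.getD k []) = wvA k := by
  simp only [rowOKL, wfold_spec, Bool.and_eq_true, Nat.beq_eq, Nat.zero_add] at h
  refine ⟨h.1, ?_⟩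
  rw [walk_eq, wvA, ← h.2]
  show _ = Multiplicative.ofAdd ((wsumN tL zL i (WW.getD k []) % 6 : ℕ) : ZMod 6)
  rw [ZMod.natCast_mod]

theorem rows_all {k : ℕ} (hk : 7 ≤ k) (hk2 : k < 61) : ∀ i < 32760, rowOKL k i = true := by
  intro i hi
  have h : allB (rowOKL k) 32760 = true := by
    interval_cases k
    · exact row7_all
    · exact row8_all
    · exact row9_all
    · exact row10_all
    · exact row11_all
    · exact row12_all
    · exact row13_all
    · exact row14_all
    · exact row15_all
    · exact row16_all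
    · exact row17_all
    · exact row18_all
    · exact row19_all
    · exact row20_all
    · exact row21_all
    · exact row22_all
    · exact row23_all
    · exact row24_all
    · exact row25_all
    · exact row26_all
    · exact row27_all
    · exact row28_all
    · exact row29_all
    · exact row30_all
    · exact row31_all
    · exact row32_all
    · exact row33_all
    · exact row34_all
    · exact row35_all
    · exact row36_all
    · exact row37_all
    · exact row38_all
    · exact row39_all
    · exact row40_all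
    · exact row41_all
    · exact row42_all
    · exact row43_all
    · exact row44_all
    · exact row45_all
    · exact row46_all
    · exact row47_all
    · exact row48_all
    · exact row49_all
    · exact row50_all
    · exact row51_all
    · exact row52_all
    · exact row53_all
    · exact row54_all
    · exact row55_all
    · exact row56_all
    · exact row57_all
    · exact row58_all
    · exact row59_all
    · exact row60_all
  exact (allB_iff _ _).1 h i hi

theorem hmoveL : ∃ j < 7, ∃ i < 32760, tL i (2 * j) ≠ i := by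
  decide +kernel

theorem wvA_59 : wvA 59 = Multiplicative.ofAdd 4 := by decide +kernel
theorem wvA_10 : wvA 10 = Multiplicative.ofAdd 3 := by decide +kernel
theorem wvA_low : ∀ k < 7, wvA k = 1 := by decide +kernel

theorem AA_gen : ∀ x : ZMod 6, (Multiplicative.ofAdd x : AA) =
    ((Multiplicative.ofAdd 3 : AA) * (Multiplicative.ofAdd 4 : AA)) ^ x.val := by
  decide +kernel

theorem hUgen (S : Subgroup AA) (h : ∀ w' ∈ [WW.getD 59 [], WW.getD 10 []], walkProd tL zA 0 w' ∈ S) : S = ⊤ := by
  have h4 : (Multiplicative.ofAdd 4 : AA) ∈ S := by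
    have := h (WW.getD 59 []) (by simp)
    rwa [(row_spec (rows_all (k := 59) (by norm_num) (by norm_num) 0 (by norm_num))).2, wvA_59] at this
  have h3 : (Multiplicative.ofAdd 3 : AA) ∈ S := by
    have := h (WW.getD 10 []) (by simp)
    rwa [(row_spec (rows_all (k := 10) (by norm_num) (by norm_num) 0 (by norm_num))).2, wvA_10] at this
  rw [eq_top_iff]
  rintro a -
  have := AA_gen a
  show (Multiplicative.ofAdd a : AA) ∈ S
  rw [this]
  exact pow_mem (mul_mem h3 h4) _

theorem cover : ∃ (Γ : Type) (_ : Group Γ) (_ : Finite Γ) (σ : Γ →* Cfsg.Spor.Suz),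
    IsStemExtension σ ∧ Nonempty (σ.ker ≃* AA) := by
  refine cover_exists (g := g) (fP eG RS) (fP_surj eG RS) (fP_of eG RS) (RP eG RS) (fP_ker eG RS) vTab (by norm_num)
    Lt hLt hLtlt ?_ hmoveL
    (fun j => (WW.getD j []).dropLast) (fun j _ x hx => hletW j x (List.mem_of_mem_dropLast hx)) exv_ok ?_ ?_
    [WW.getD 59 [], WW.getD 10 []] ?_ hUgen
  · intro r hr
    have h1 : (FreeGroup.freeGroupCongr eG r) ∈ coxList Suz.edges ++ Suz.extra := (mem_coxR _ _ _).1 hr
    have h2 := Lt_mem _ h1
    obtain ⟨k, hk, e⟩ := List.mem_iff_getElem.1 h2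
    have hk' : k < 54 := by
      rw [List.length_drop, len_WW] at hk
      exact hk
    have h3 : Lt r = WW.getD (k + 7) [] := by
      show toLetters lets (FreeGroup.freeGroupCongr eG r) = _
      rw [← e, List.getElem_drop, List.getD_eq_getElem _ _ (by rw [len_WW]; omega)]
      congr 1
      omega
    refine ⟨wvA (k + 7), fun i hi => ?_⟩
    rw [h3]
    exact row_spec (rows_all (by omega) (by omega) i hi)
  · intro j hj
    rw [← exa_ok j hj]
    exact hrelW j
  · intro j hj
    rw [← exa_ok j hj, (row_spec (rowE_ok j hj)).2]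
    exact wvA_low j hj
  · intro w' hw
    simp only [List.mem_cons, List.not_mem_nil, or_false] at hw
    rcases hw with rfl | rfl
    · exact ⟨hletW _, hrelW _⟩
    · exact ⟨hletW _, hrelW _⟩

end Cfsg.Agent.Lib.Compute.Mult.Suz
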