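import Cfsg.Agent.Lib.Compute.Mult.Suz.VarU
import Cfsg.Agent.Lib.Compute.Mult.Suz.CheckU
import Cfsg.Agent.S1694
import Cfsg.Agent.S1679
import Cfsg.Agent.S1680
import Cfsg.Agent.S1055

/-!
# The upper bound for the Schur multiplier of the Suzuki group

The table of the cosets of the subgroup `G₂(4)`, with its edge labels.
-/

set_option autoImplicit false
set_option maxRecDepth 100000

namespace Cfsg.Agent.Lib.Compute.Mult.Suz

open Cfsg Cfsg.Spor
open Cfsg.Agent.Lib.Compute.PermCert Cfsg.Agent.Lib.Compute.PeelCert Cfsg.Agent.Lib.Compute.CoverCert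
open Cfsg.Agent.Lib.Compute.SchurLin Cfsg.Agent.Lib.Compute.SchurU Cfsg.Agent.Lib.Compute.PresTransfer
open Cfsg.Agent.Lib.Compute.StemQuot
open Cfsg.Agent.Lib.Compute.ToddCoxeterCore (wordEl wordEl_nil wordEl_cons wordEl_append)
open Cfsg.Agent.Lib.Compute.ToddCoxeterPresented (toLetters letterOf coxList mem_coxR)

/-- The relators. -/
abbrev RS : Set (FreeGroup Suz.Gen) := coxRelators Suz.edges ∪ {r | r ∈ Suz.extra}

/-- The generators, numbered. -/
def eG : Fin 7 ≃ Suz.Gen where
  toFun := ![.a, .b, .c, .d, .e, .f, .g]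
  invFun := fun x => match x with
    | .a => 0 | .b => 1 | .c => 2 | .d => 3 | .e => 4 | .f => 5 | .g => 6
  left_inv := by decide
  right_inv := by intro x; cases x <;> rfl

/-- The letters. -/
def lets : List (Suz.Gen × Bool) :=
  [(.a, true), (.a, false), (.b, true), (.b, false), (.c, true), (.c, false), (.d, true), (.d, false),
   (.e, true), (.e, false), (.f, true), (.f, false), (.g, true), (.g, false)]

theorem hcode : ∀ (j : Fin 7) (b : Bool), letterOf lets (eG j, b) = 2 * j.val + (if b then 0 else 1) := by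
  decide

theorem hgens : ∀ a, (a, true) ∈ lets := by
  intro a
  cases a <;> decide

/-- The generators in the group. -/
noncomputable abbrev g : ℕ → Cfsg.Spor.Suz := gP eG RS

/-- The letters of a relator. -/
def Lt : FreeGroup (Fin 7) → List ℕ := LtP eG lets

theorem hLt (r : FreeGroup (Fin 7)) : wordEl (ltr (gF 7)) (Lt r) = r := hLtP eG lets hcode r

theorem hLtlt (r : FreeGroup (Fin 7)) : ∀ x ∈ Lt r, x < 2 * 7 := hLtPlt eG lets (by decide) hgens r

theorem Lt_mem : ∀ r ∈ coxList Suz.edges ++ Suz.extra, toLetters lets r ∈ WW.drop 7 := by decide +kernel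

instance simple_G : IsSimpleGroup Cfsg.Spor.Suz := Cfsg.Agent.S1694.result.1

theorem card_G : Nat.card Cfsg.Spor.Suz = 448345497600 := Cfsg.Agent.S1694.result.2

instance finite_G : Finite Cfsg.Spor.Suz := Nat.finite_of_card_ne_zero (by rw [card_G]; norm_num)

/-! ### The table -/

theorem tab_spec {i : ℕ} (hi : i < 1782) :
    (∀ x < 14, tG i x < 1782 ∧ tG (tG i x) (flp x) = i) ∧
      (i ≠ 0 → parG i < i ∧ ltG i < 14 ∧ tG (parG i) (ltG i) = i) := by
  have h := (allB_iff _ _).1 tab_ok i hi
  simp only [tabOK, Bool.and_eq_true, Bool.or_eq_true, Nat.beq_eq, Nat.blt_eq] at h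
  obtain ⟨h1, h2⟩ := h
  constructor
  · intro x hx
    have h3 := (allB_iff _ _).1 h1 x hx
    simp only [Bool.and_eq_true, Nat.beq_eq, Nat.blt_eq] at h3
    exact h3
  · intro h0
    rcases h2 with h2 | h2
    · exact absurd h2 h0
    · exact ⟨h2.1.1, h2.1.2, h2.2⟩

theorem pTab : PTab tG 7 1782 :=
  ⟨fun i hi x hx => ((tab_spec hi).1 x hx).1, fun i hi x hx => ((tab_spec hi).1 x hx).2⟩

theorem hletW : ∀ k, ∀ x ∈ WW.getD k [], x < 2 * 7 := by
  intro k x hx
  rcases getD_mem_or (W := WW) k with h | h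
  · exact lt_ok _ h x hx
  · rw [h] at hx
    simp at hx

theorem hlenW : ∀ k, (WW.getD k []).length ≤ 201 := by
  intro k
  rcases getD_mem_or (W := WW) k with h | h
  · exact len_ok _ h
  · rw [h]
    simp

theorem hendW (k : ℕ) : ∀ i < 1782, walkEnd tG i (WW.getD k []) = i := by
  intro i hi
  by_cases hk : k < 61
  · exact wendB_spec _ _ _ ((allB_iff _ _).1 (end_ok k hk) i hi)
  · have : WW.getD k [] = [] := by
      rw [List.getD_eq_default]
      rw [len_WW]
      omega
    rw [this]
    rfl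

theorem hact_rows : ∀ r ∈ RP eG RS, ∀ i < 1782, walkEnd tG i (Lt r) = i := by
  intro r hr i hi
  have h1 : (FreeGroup.freeGroupCongr eG r) ∈ coxList Suz.edges ++ Suz.extra := (mem_coxR _ _ _).1 hr
  have h2 := Lt_mem _ h1
  obtain ⟨k, hk, e⟩ := List.mem_iff_getElem.1 h2
  have h3 : Lt r = WW.getD (k + 7) [] := by
    show toLetters lets (FreeGroup.freeGroupCongr eG r) = _
    rw [← e, List.getElem_drop, List.getD_eq_getElem _ _ (by
      rw [List.length_drop] at hk
      omega)]
    congr 1
    omega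
  rw [h3]
  exact hendW _ i hi

theorem exists_act : ∃ ρ : Cfsg.Spor.Suz →* Equiv.Perm (Fin 1782), ∀ j < 7, ρ (g j) = tp pTab j :=
  exists_action (fP eG RS) (fP_surj eG RS) (fP_of eG RS) (RP eG RS) (fP_ker eG RS) pTab Lt hLt hLtlt hact_rows

theorem hmove : ∃ j < 7, ∃ i < 1782, tG i (2 * j) ≠ i := by
  decide +kernel

theorem hrelW (k : ℕ) : wordEl (ltr g) (WW.getD k []) = 1 := by
  obtain ⟨ρ, hρ⟩ := exists_act
  exact word_one_of_table pTab ρ hρ hmove (hletW k) (hendW k)

theorem exW (k : ℕ) (hk : k < 7) : ∃ C : List ℕ, WW.getD k [] = C ++ [2 * k + 1] := ⟨_, exa_ok k hk⟩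

theorem var_spec {u : ℕ} (hu : u < 1782 * 7) : ssG u < 1782 ∧ bdB BB 32768 (54 + 10) (formG (rkG u)) = true ∧
    chkVar tG 7 parG ltG rkG formG kkG ssG pVG WW offC EG 7 BB 61 54 10 u = true := by
  have h := (allB_iff _ _).1 varR_all u hu
  simp only [varOK, Bool.and_eq_true, Nat.blt_eq] at h
  exact ⟨h.1.1, h.1.2, h.2⟩

theorem BB_eq : BB = 8388608 := rfl

/-- A stem extension with a section over the stabilizer of the first point has a kernel of order dividing three. -/
theorem upper_sec {Γ' : Type} [Group Γ'] [Finite Γ'] (σ : Γ' →* Cfsg.Spor.Suz) (hstem : IsStemExtension σ)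
    (ρ : Cfsg.Spor.Suz →* Equiv.Perm (Fin 1782)) (hρ : ∀ j < 7, ρ (g j) = tp pTab j)
    (s : (@MulAction.stabilizer _ (Fin 1782) _ (MulAction.compHom (Fin 1782) ρ) ⟨0, by norm_num⟩) →* Γ')
    (hs : ∀ l, σ (s l) = l) :
    ∃ π : Multiplicative (ZMod 3) →* σ.ker, Function.Surjective π := by
  have hparT : ∀ i < 1782, i ≠ 0 → parG i < i ∧ ltG i < 14 ∧ tG (parG i) (ltG i) = i :=
    fun i hi h0 => (tab_spec hi).2 h0
  letI : MulAction Cfsg.Spor.Suz (Fin 1782) := MulAction.compHom (Fin 1782) ρ
  have tab := tab_of_action (g := g) pTab (by norm_num) ρ hρ hparT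
  obtain ⟨z, rr, c⟩ := exists_cocy hstem tab (gP_gen eG RS) hletW hrelW exW exv_ok s hs
  let _ : CommGroup σ.ker :=
    { (inferInstance : Group σ.ker) with
      mul_comm := fun p q => Subtype.ext (Subgroup.mem_center_iff.mp (hstem.2.1 p.2) (q : Γ')).symm }
  obtain ⟨u, hu, hgen⟩ := peel_final (A := σ.ker) (par := parG) (lt := ltG) (rk := rkG) (formT := formG) (kk := kkG)
    (ss := ssG) (pV := pVG) (off := offC) (E := EG) (B := BB) (kmax := 61) (R := 54) (c0 := 10) (a := 32768) (Lm := 201)
    (a2 := 329) c (by norm_num) pTab.hlt hletW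
    (fun i hi h0 => by
      obtain ⟨a, b, c⟩ := hparT i hi h0
      exact ⟨by omega, b, c⟩)
    (by rw [BB_eq]; norm_num) hE_ok (by norm_num) (fun u hu => (var_spec hu).1) (by norm_num) (by rw [BB_eq]; norm_num)
    (by rw [BB_eq]; norm_num) hlenW hoff_ok (fun u hu => (var_spec hu).2.1) (fun u hu => (var_spec hu).2.2) rels_ok ord_ok
    tgt_ok cov_ok
  exact exists_surj_of_cyclic hu hgen

/-- The subgroup generated by six of the generators. -/
abbrev HH : Subgroup Cfsg.Spor.Suz :=
  (Subgroup.closure ({Suz.a, Suz.b, Suz.c, Suz.d, Suz.e, Suz.f} : Set (FreeGroup Suz.Gen))).map (PresentedGroup.mk RS)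

theorem hfix : ∀ j < 6, tG 0 (2 * j) = 0 := by decide +kernel

/-- The stabilizer of the first point is the subgroup. -/
theorem stab_eq (ρ : Cfsg.Spor.Suz →* Equiv.Perm (Fin 1782)) (hρ : ∀ j < 7, ρ (g j) = tp pTab j) :
    (@MulAction.stabilizer _ (Fin 1782) _ (MulAction.compHom (Fin 1782) ρ) ⟨0, by norm_num⟩) = HH := by
  have hparT : ∀ i < 1782, i ≠ 0 → parG i < i ∧ ltG i < 14 ∧ tG (parG i) (ltG i) = i :=
    fun i hi h0 => (tab_spec hi).2 h0
  letI : MulAction Cfsg.Spor.Suz (Fin 1782) := MulAction.compHom (Fin 1782) ρ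
  have hc := card_stabilizer_of_table (g := g) pTab (by norm_num) ρ hρ hparT
  have hI : HH.index = 1782 := Cfsg.Agent.S1680.result.1
  have hc2 := HH.card_mul_index
  rw [hI] at hc2
  have hle : HH ≤ MulAction.stabilizer Cfsg.Spor.Suz (⟨0, by norm_num⟩ : Fin 1782) := by
    rw [Subgroup.map_le_iff_le_comap, Subgroup.closure_le]
    have key : ∀ j : Fin 6, PresentedGroup.mk RS (FreeGroup.of (eG (Fin.castSucc j))) ∈
        MulAction.stabilizer Cfsg.Spor.Suz (⟨0, by norm_num⟩ : Fin 1782) := by
      intro j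
      have h1 : PresentedGroup.mk RS (FreeGroup.of (eG (Fin.castSucc j))) = g j.val := by
        have := fP_of eG RS (Fin.castSucc j)
        simpa [fP] using this
      rw [h1, MulAction.mem_stabilizer_iff]
      have h2 : ρ (g j.val) = tp pTab j.val := hρ _ (by omega)
      show ρ (g j.val) _ = _
      rw [h2]
      have hx : 2 * j.val < 2 * 7 := by omega
      have h3 := word_tp pTab [2 * j.val] (by simpa using hx) ⟨0, by norm_num⟩
      have h4 : ltr (tp pTab) (2 * j.val) = tp pTab j.val := by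
        have h5 : 2 * j.val / 2 = j.val := by omega
        simp [ltr, h5]
      rw [wordEl_cons, wordEl_nil, one_mul, h4] at h3
      apply Fin.ext
      rw [h3]
      exact hfix _ (by omega)
    intro x hx
    simp only [Set.mem_insert_iff, Set.mem_singleton_iff] at hx
    rcases hx with rfl | rfl | rfl | rfl | rfl | rfl
    · exact key 0
    · exact key 1
    · exact key 2
    · exact key 3
    · exact key 4
    · exact key 5
  symm
  apply Subgroup.eq_of_le_of_card_ge hle
  have h5 : Nat.card (MulAction.stabilizer Cfsg.Spor.Suz (⟨0, by norm_num⟩ : Fin 1782)) * 1782 = Nat.card HH * 1782 :=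
    hc.trans hc2.symm
  exact le_of_eq (Nat.eq_of_mul_eq_mul_right (by norm_num) h5)

/-- All stem extensions of the Suzuki group have a kernel which is a quotient of a cyclic group of order six, given the
multiplier of `G₂(4)`. -/
theorem upper (hG2 : ∀ (K : Type) [Field K] [Fintype K], Fintype.card K = 4 →
      HasCyclicSchurMultiplier ↥(Cfsg.Lie.chevG2.group K) 2)
    (Γ' : Type) [Group Γ'] [Finite Γ'] (σ : Γ' →* Cfsg.Spor.Suz) (hstem : IsStemExtension σ) :
    ∃ π : Multiplicative (ZMod (2 * 3)) →* σ.ker, Function.Surjective π := by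
  obtain ⟨ρ, hρ⟩ := exists_act
  obtain ⟨K, _, _, hK, ⟨e⟩⟩ := Cfsg.Agent.S1679.result
  have hMH : HasCyclicSchurMultiplier HH 2 := hasSchur_transport e (hG2 K hK)
  have hperfG2 : commutator ↥(Cfsg.Lie.chevG2.group K) = ⊤ := by
    have hex : ∃ a : K, a ≠ 0 ∧ a ≠ 1 := by
      classical
      by_contra hcon
      push Not at hcon
      have : Fintype.card K ≤ 2 := by
        have h1 : (Finset.univ : Finset K) ⊆ {0, 1} := by
          intro x _
          by_cases h0 : x = 0
          · simp [h0]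
          · simp [hcon x h0]
        calc Fintype.card K = (Finset.univ : Finset K).card := rfl
          _ ≤ ({0, 1} : Finset K).card := Finset.card_le_card h1
          _ ≤ 2 := Finset.card_le_two
      omega
    have h := Cfsg.Agent.S1055.result hex
    haveI := h.1
    exact Cfsg.Agent.Lib.Compute.Mult.perfect_of_simple h.2
  have hperf : commutator HH = ⊤ := commutator_top_of_equiv e hperfG2
  obtain ⟨Q, hQ, hQk, hπ, s, hs⟩ := exists_quot_section hstem HH hperf hMH
  have hst := stem_quot hstem Q hQk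
  have hsb := stab_eq ρ hρ
  have h3 : ∃ π : Multiplicative (ZMod 3) →* (QuotientGroup.lift Q σ (fun x hx => hQk hx)).ker,
      Function.Surjective π := by
    refine upper_sec (QuotientGroup.lift Q σ (fun x hx => hQk hx)) hst ρ hρ ?_ ?_
    · exact s.comp (Subgroup.inclusion (le_of_eq hsb))
    · intro l
      exact hs _
  exact surj_of_quot hstem Q hQk (by norm_num) hπ h3

end Cfsg.Agent.Lib.Compute.Mult.Suz
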