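import Cfsg.Agent.Lib.Compute.Mult.Suz.DefsU

/-!
# The kernel checks of the labels of the table on `1782` points
-/

set_option autoImplicit false
set_option maxRecDepth 100000

namespace Cfsg.Agent.Lib.Compute.Mult.Suz

open Cfsg.Agent.Lib.Compute.PermCert Cfsg.Agent.Lib.Compute.PeelCert Cfsg.Agent.Lib.Compute.CoverCert
open Cfsg.Agent.Lib.Compute.SchurLin (flp expV unitV)

theorem varR0 : allB (fun r => varOK (Nat.add 0 r)) 2048 = true := by decide +kernel
theorem varR1 : allB (fun r => varOK (Nat.add 2048 r)) 2048 = true := by decide +kernel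
theorem varR2 : allB (fun r => varOK (Nat.add 4096 r)) 2048 = true := by decide +kernel
theorem varR3 : allB (fun r => varOK (Nat.add 6144 r)) 2048 = true := by decide +kernel
theorem varR4 : allB (fun r => varOK (Nat.add 8192 r)) 2048 = true := by decide +kernel
theorem varR5 : allB (fun r => varOK (Nat.add 10240 r)) 2048 = true := by decide +kernel
theorem varR6 : allB (fun r => varOK (Nat.add 12288 r)) 186 = true := by decide +kernel

theorem varR_all : allB varOK 12474 = true := by
  rw [allB_iff]
  intro u hu
  by_cases h0 : u < 2048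
  · exact Cfsg.Agent.Lib.Compute.Mult.blk varR0 (by omega) (by omega)
  by_cases h1 : u < 4096
  · exact Cfsg.Agent.Lib.Compute.Mult.blk varR1 (by omega) (by omega)
  by_cases h2 : u < 6144
  · exact Cfsg.Agent.Lib.Compute.Mult.blk varR2 (by omega) (by omega)
  by_cases h3 : u < 8192
  · exact Cfsg.Agent.Lib.Compute.Mult.blk varR3 (by omega) (by omega)
  by_cases h4 : u < 10240
  · exact Cfsg.Agent.Lib.Compute.Mult.blk varR4 (by omega) (by omega)
  by_cases h5 : u < 12288
  · exact Cfsg.Agent.Lib.Compute.Mult.blk varR5 (by omega) (by omega)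
  exact Cfsg.Agent.Lib.Compute.Mult.blk varR6 (by omega) (by omega)

end Cfsg.Agent.Lib.Compute.Mult.Suz
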